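import Cfsg.Agent.H312.EPU.NatU
import Cfsg.Agent.H312.EPU.Form

/-!
# S3499-VII13, own characteristic, socle `PSU_d(q)`, `d ≥ 6` (helper312, task 6135)

* **`own_psu_big`** : with `|Q| ≤ |A| ^ 4` the socle of `A` (`Big A Γ S P`) is not `PSU_d(K)`, `d ≥ 6`,
  `char K = char F`.
-/

set_option autoImplicit false
set_option linter.unusedSectionVars false

namespace Cfsg.Agent.H312.EPU

open Cfsg Cfsg.Geo
open Cfsg.Agent.H915.LD Cfsg.Agent.H419.EP
open scoped MatrixGroups Matrix

variable {Q : Type} [Group Q] [Finite Q] {A : Subgroup Q} {Γ : Subgroup (MulAut Q)} {ι : Type} [Fintype ι]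
    [DecidableEq ι] {F : Type} [Field F] [Fintype F] {S P : Subgroup (GL ι F)}

/-- **S3499-VII13-PSU-big.** -/
theorem own_psu_big (x : Big A Γ S P) (hUB : Nat.card Q ≤ Nat.card A ^ 4) (K : Type) [Field K] [Fintype K] (d q : ℕ)
    (hK : Fintype.card K = q ^ 2) (hd : 6 ≤ d) (hc : ringChar F = ringChar K)
    (hS : Nonempty (socle P ≃* Cfsg.PSU d K q)) : False := by
  obtain ⟨e⟩ := hS
  have hC : Core P := core_of_residual x.core
  have hKp : CharP K (ringChar F) := by
    rw [hc]
    exact ringChar.charP K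
  have hFp : CharP F (ringChar F) := ringChar.charP F
  have hp : Fact (ringChar F).Prime := ⟨CharP.char_is_prime F _⟩
  have hfin : Finite (PSU d K q) := inferInstance
  have hA : Nat.card A ≤ q ^ (d ^ 2) := (x.hasSoc' e).card_le.trans (aut_le hK (by omega) (by omega))
  obtain ⟨τ, θ, hθ⟩ := ident_psu (ringChar F) hC hd hK e x.thirteen fun j hj hjq =>
    deg_bounds x.two_le hj (by rw [← Nat.card_eq_fintype_card]; exact hjq) x.ord hUB hA hd
  obtain ⟨σ, f, h1, h2, h3⟩ := form_of_ident hK τ θ hθ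
  exact no_unitary x h1 h2 h3

end Cfsg.Agent.H312.EPU
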